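import Cfsg.Agent.H854.Loc.Main
import Cfsg.Agent.S0917
import Cfsg.Agent.S0911
import Cfsg.Agent.S0908
import Cfsg.Agent.S0906
import Cfsg.Agent.S0931

/-!
# Degrees from local characters of defect zero (helper854)

`z` of order `p`, `θ ∈ Irr(C(z)/⟨z⟩)` of `p`-defect zero: there is a block `B` of `G` with defect group `⟨z⟩` all of whose
characters have the zeros of `exists_char`, and `p`-part of the degree exactly `|G|_p / p`.
-/

set_option autoImplicit false

namespace Cfsg.Agent.H854.Loc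

open Cfsg Cfsg.Agent.Blocks.Basic Cfsg.Agent.Blocks.Local
open Cfsg.Agent.Characters.Core
open Cfsg.Agent.Blocks.ExtendedFMT
open Cfsg.Agent.Blocks
open scoped ComplexConjugate

variable {G : Type*} [Group G] [Finite G] {p : ℕ} [hp : Fact p.Prime]

/-- The induced block has defect group `P`. -/
theorem defect_eq {M : Ideal AlgInt} (hM : IsPModular p M) {P : Subgroup G} (hc : Nat.card P = p)
    (θ : IrrCharacter (LL P ⧸ PL P))
    (hθ : (charDegree (θ : LL P ⧸ PL P → ℂ)).factorization p = (Nat.card (LL P ⧸ PL P)).factorization p)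
    {B : Set (IrrCharacter G)} (hB : IsInducedBlock M (LL P) (blockOf M (infl θ : LL P → ℂ)) B) :
    blockDefect p B = 1 := by
  have hprime : M.IsPrime := isPrime_of_isPModular hM
  have hPp : IsPGroup p P := isPGroup_of_card hc
  have hCL : Subgroup.centralizer (P : Set G) ≤ LL P := le_sup_right
  have hPL : P ≤ LL P := le_sup_left
  obtain ⟨g, hg, hgne⟩ := exists_ne hM hc θ hθ
  obtain ⟨χ, hχ⟩ := isPBlock_nonempty hB.2.1
  have k1 := (Cfsg.Agent.S0918.result p M hM P (LL P) hPp hPL hCL (L_le_normalizer P) _ hB.1 B hB.2.1).1 hB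
    (infl θ) (mem_blockOf_self _) χ hχ g
  have hne : ¬ MemLocalIdeal M (centralChar (χ : G → ℂ) g) := by
    intro h
    apply hgne
    exact (memLocalIdeal_iff_of_sub k1).2 h
  obtain ⟨y, hy⟩ := Cfsg.Agent.S0906.result p M hM B hB.2.1
  obtain ⟨D⟩ : Nonempty (Sylow p (Subgroup.centralizer ({y} : Set G))) := inferInstance
  have hDdef : IsDefectGroup p M B ((D : Subgroup (Subgroup.centralizer ({y} : Set G))).map
      (Subgroup.centralizer ({y} : Set G)).subtype) := ⟨y, hy, D, rfl⟩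
  obtain ⟨x, Q, hQ⟩ := (Cfsg.Agent.S0911.result p M hM B hB.2.1 y hy D g).2 ⟨χ, hχ, hne⟩
  have hcard := Cfsg.Agent.S0908.result p M hM B hB.2.1 _ hDdef
  -- the order is at most `p`
  have h1 : Nat.card ((D : Subgroup (Subgroup.centralizer ({y} : Set G))).map
      (Subgroup.centralizer ({y} : Set G)).subtype) ∣ p := by
    have h2 := Subgroup.card_dvd_of_le hQ
    rw [Nat.card_congr (Subgroup.equivMapOfInjective _ (MulAut.conj x).toMonoidHom
      (MulAut.conj x).injective).toEquiv.symm] at h2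
    refine h2.trans ?_
    obtain ⟨S, hS⟩ := hg
    have h3 : Nat.card ((Q : Subgroup (Subgroup.centralizer ({g} : Set G))).map
        (Subgroup.centralizer ({g} : Set G)).subtype) = p ^ (Nat.card (Subgroup.centralizer ({g} : Set G))).factorization p :=
      SylowIn.card_of_sylow_map_eq ⟨Q, rfl⟩
    have h4 := SylowIn.card_of_sylow_map_eq ⟨S, hS⟩
    rw [h3, ← h4, hc]
  rw [hcard] at h1
  rcases (Nat.dvd_prime hp.out).1 h1 with h2 | h2
  · -- defect zero is impossible
    exfalso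
    have h3 : blockDefect p B = 0 := by
      by_contra h4
      have h5 : 1 < p ^ blockDefect p B := Nat.one_lt_pow h4 hp.out.one_lt
      omega
    have h4 := (Cfsg.Agent.S0931.result p M hM (LL P) _ B hB).2 h3
    -- the block of `θ` has defect 1
    have h5 := (Cfsg.Agent.S0969.result p M hM (PL P) hPp.comap_subtype (PL_le_center hc) (infl θ) (by
      have h6 : charDegree (infl θ : LL P → ℂ) = charDegree (θ : LL P ⧸ PL P → ℂ) := by
        rw [charDegree_def, charDegree_def, infl_apply, QuotientGroup.mk_one]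
      rw [h6, hθ]
      rfl)).1
    have h6 := Cfsg.Agent.S0908.result p M hM _ hB.1 _ h5
    rw [h4, pow_zero, card_PL, hc] at h6
    exact hp.out.one_lt.ne' h6
  · exact Nat.pow_right_injective hp.out.two_le (by simpa using h2)

/-- Zeros and degrees. -/
theorem exists_deg {P : Subgroup G} (hc : Nat.card P = p)
    (θ : IrrCharacter (LL P ⧸ PL P))
    (hθ : (charDegree (θ : LL P ⧸ PL P → ℂ)).factorization p = (Nat.card (LL P ⧸ PL P)).factorization p) :
    ∃ χ : IrrCharacter G, (charDegree (χ : G → ℂ)).factorization p + 1 = (Nat.card G).factorization p ∧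
      ∀ z ∈ P, z ≠ 1 → ∀ y : LL P, ¬ p ∣ orderOf y →
      (∀ n : Subgroup.normalizer (P : Set G), (θ : LL P ⧸ PL P → ℂ) (QuotientGroup.mk (conjN P n y)) = 0) →
      (χ : G → ℂ) (z * y) = 0 := by
  classical
  obtain ⟨M, hM⟩ := Knorr.exists_isPModular p
  have hprime : M.IsPrime := isPrime_of_isPModular hM
  have hPp : IsPGroup p P := isPGroup_of_card hc
  have hFL : Fintype (LL P) := Fintype.ofFinite _
  have hFG : Fintype G := Fintype.ofFinite _
  have := finite_irr (G := LL P)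
  have := Fintype.ofFinite (IrrCharacter (LL P))
  set b := blockOf M (infl θ : LL P → ℂ) with hb
  have hbB : IsPBlock M b := ⟨_, rfl⟩
  have hCL : Subgroup.centralizer (P : Set G) ≤ LL P := le_sup_right
  have hPL : P ≤ LL P := le_sup_left
  obtain ⟨B, hB⟩ := Cfsg.Agent.S0919.result p M hM P (LL P) hPp hPL hCL (L_le_normalizer P) b hbB
  -- a character of height zero
  have hdef := defect_eq hM hc θ hθ hB
  obtain ⟨χ, hχ, hdeg⟩ : ∃ χ ∈ B, (charDegree (χ : G → ℂ)).factorization p + 1 = (Nat.card G).factorization p := by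
    have hne : ((fun χ : IrrCharacter G => (charDegree (χ : G → ℂ)).factorization p) '' B).Nonempty := by
      obtain ⟨χ, hχ⟩ := isPBlock_nonempty hB.2.1
      exact ⟨_, χ, hχ, rfl⟩
    obtain ⟨χ, hχ, h1⟩ := Nat.sInf_mem hne
    refine ⟨χ, hχ, ?_⟩
    have h2 : (charDegree (χ : G → ℂ)).factorization p =
        sInf ((fun χ : IrrCharacter G => (charDegree (χ : G → ℂ)).factorization p) '' B) := h1
    rw [blockDefect_def, ← h2] at hdef
    omega
  obtain ⟨g, hg, hgne⟩ := exists_ne hM hc θ hθ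
  obtain ⟨m, hm⟩ : charDegree (θ : LL P ⧸ PL P → ℂ) ∣ Nat.card (LL P ⧸ PL P) := Knorr.charDegree_dvd θ.2
  have hdz : ¬ p ∣ Nat.card (LL P ⧸ PL P) / charDegree (θ : LL P ⧸ PL P → ℂ) := by
    rw [hm, Nat.mul_div_cancel_left _ (Nat.pos_of_ne_zero (Knorr.charDegree_ne_zero θ.2))]
    exact not_dvd_quot hm Nat.card_pos.ne' hθ
  refine ⟨χ, hdeg, fun z hz hz1 y hy hvan => ?_⟩
  have hzo : ∃ k : ℕ, orderOf z = p ^ k := ⟨1, by
    rw [pow_one, ← Nat.card_zpowers, zpowers_eq hc hz hz1, hc]⟩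
  have hS := CentralizerSum.sum_components hM z hzo (LL_eq_centralizer hc hz hz1) hB.2.1
    (A := {ξ | IsInducedBlock M (LL P) (blockOf M (ξ : LL P → ℂ)) B}) (fun ξ => Iff.rfl) y hy χ
  rw [if_pos hχ] at hS
  rw [← hS]
  refine Finset.sum_eq_zero fun ξ hξ => ?_
  have hξA : IsInducedBlock M (LL P) (blockOf M (ξ : LL P → ℂ)) B := (Finset.mem_filter.1 hξ).2
  have k1 := (Cfsg.Agent.S0918.result p M hM P (LL P) hPp hPL hCL (L_le_normalizer P) b hbB B hB.2.1).1 hB
    (infl θ) (mem_blockOf_self _) χ hχ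
  have k2 := (Cfsg.Agent.S0918.result p M hM P (LL P) hPp hPL hCL (L_le_normalizer P) _ hξA.1 B hB.2.1).1 hξA
    ξ (mem_blockOf_self _) χ hχ
  obtain ⟨n, hn⟩ := mem_orbitSet_of_brauer_congr hM P hPp g hg hbB (infl θ) ξ (mem_blockOf_self _)
    (fun c => memLocalIdeal_sub_trans (k1 c) (memLocalIdeal_sub_comm (k2 c))) hgne
  obtain ⟨c, hcc⟩ := apply_eq hM (PL_le_center hc) (P := PL P) hPp.comap_subtype θ hdz
    (compIrr (conjN P n) ξ) hn
  have h1 := hcc (conjN P n⁻¹ y) (by rwa [MulEquiv.orderOf_eq])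
  have hinv : conjN P n (conjN P n⁻¹ y) = y := by
    apply Subtype.ext
    rw [conjN_coe, conjN_coe]
    push_cast
    group
  rw [compIrr_apply, hinv, hvan n⁻¹, mul_zero] at h1
  rw [h1, mul_zero]

/-- **Degrees with `p`-part `|G|_p / p`**, for a surjection of `C(z)` with kernel `⟨z⟩`. -/
theorem exists_deg' {z : G} (hz : orderOf z = p) {Q : Type*} [Group Q]
    (π : Subgroup.centralizer ({z} : Set G) →* Q) (hπ : Function.Surjective π)
    (hker : ∀ x, π x = 1 ↔ (x : G) ∈ Subgroup.zpowers z) (θ : IrrCharacter Q)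
    (hθ : (charDegree (θ : Q → ℂ)).factorization p = (Nat.card Q).factorization p) :
    ∃ χ : IrrCharacter G, (charDegree (χ : G → ℂ)).factorization p + 1 = (Nat.card G).factorization p ∧
      ∀ u ∈ Subgroup.zpowers z, u ≠ 1 → ∀ y : Subgroup.centralizer ({z} : Set G),
      ¬ p ∣ orderOf y → (∀ α : MulAut Q, (θ : Q → ℂ) (α (π y)) = 0) → (χ : G → ℂ) (u * y) = 0 := by
  have hz1 : z ≠ 1 := by
    rintro rfl
    rw [orderOf_one] at hz
    exact hp.out.one_lt.ne hz
  have hc : Nat.card (Subgroup.zpowers z) = p := by rw [Nat.card_zpowers, hz]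
  have hLC : LL (Subgroup.zpowers z) = Subgroup.centralizer ({z} : Set G) :=
    LL_eq_centralizer hc (Subgroup.mem_zpowers z) hz1
  let e0 : LL (Subgroup.zpowers z) ≃* Subgroup.centralizer ({z} : Set G) := MulEquiv.subgroupCongr hLC
  let π' : LL (Subgroup.zpowers z) →* Q := π.comp (e0 : LL (Subgroup.zpowers z) →* _)
  have hπ' : Function.Surjective π' := hπ.comp e0.surjective
  have hk' : π'.ker = PL (Subgroup.zpowers z) := by
    ext x
    rw [MonoidHom.mem_ker, Subgroup.mem_subgroupOf]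
    exact (hker (e0 x)).trans Iff.rfl
  let q : LL (Subgroup.zpowers z) ⧸ PL (Subgroup.zpowers z) ≃* Q :=
    (QuotientGroup.quotientMulEquivOfEq hk'.symm).trans
      (QuotientGroup.quotientKerEquivOfSurjective π' hπ')
  have hq : ∀ x, q (QuotientGroup.mk x) = π' x := fun x => rfl
  let θ' : IrrCharacter (LL (Subgroup.zpowers z) ⧸ PL (Subgroup.zpowers z)) :=
    ⟨(θ : Q → ℂ) ∘ q, isIrr_comp q.toMonoidHom q.surjective θ.2⟩
  have hθ' : (charDegree (θ' : LL (Subgroup.zpowers z) ⧸ PL (Subgroup.zpowers z) → ℂ)).factorization p =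
      (Nat.card (LL (Subgroup.zpowers z) ⧸ PL (Subgroup.zpowers z))).factorization p := by
    have h1 : charDegree (θ' : LL (Subgroup.zpowers z) ⧸ PL (Subgroup.zpowers z) → ℂ) =
        charDegree (θ : Q → ℂ) := by
      rw [charDegree_def, charDegree_def]
      show ⌊((θ : Q → ℂ) (q 1)).re⌋₊ = _
      rw [map_one]
    rw [h1, hθ, Nat.card_congr q.toEquiv]
  obtain ⟨χ, hdeg, hχ⟩ := exists_deg hc θ' hθ'
  refine ⟨χ, hdeg, fun u hu hu1 y hy hvan => ?_⟩
  refine hχ u hu hu1 (e0.symm y) (by rwa [MulEquiv.orderOf_eq]) fun n => ?_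
  obtain ⟨γ, hγ⟩ := exists_aut π' hπ' (conjN (Subgroup.zpowers z) n) (by
    intro x
    rw [← MonoidHom.mem_ker, ← MonoidHom.mem_ker, hk', Subgroup.mem_subgroupOf, Subgroup.mem_subgroupOf,
      conjN_coe]
    exact Subgroup.mem_normalizer_iff.1 n.2 _)
  show (θ : Q → ℂ) (q (QuotientGroup.mk (conjN (Subgroup.zpowers z) n (e0.symm y)))) = 0
  rw [hq, ← hγ]
  have h2 : π' (e0.symm y) = π y := by
    show π (e0 (e0.symm y)) = π y
    rw [MulEquiv.apply_symm_apply]
  rw [h2]
  exact hvan γ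

end Cfsg.Agent.H854.Loc
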